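import Mathlib
import Cfsg.Agent.Lib.Helper56.TC
import Cfsg.Agent.Lib.Helper28.G2Mult.L0.D
set_option autoImplicit false
set_option maxRecDepth 1000000

namespace Cfsg.Agent.Lib.Helper28.G2Mult.L0

open Cfsg.Agent.Lib.Helper56.TC Cfsg.Agent.Lib.Helper56.TC.Tabs
open Cfsg.Agent.Lib.Helper28.CovL

theorem cN_0 : allRange (fun x => forceN T.chkName x) 0 525 = true := by decide +kernel
theorem cN_525 : allRange (fun x => forceN T.chkName x) 525 687 = true := by decide +kernel
theorem cN_1212 : allRange (fun x => forceN T.chkName x) 1212 603 = true := by decide +kernel
theorem cN_1815 : allRange (fun x => forceN T.chkName x) 1815 561 = true := by decide +kernel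
theorem cN_2376 : allRange (fun x => forceN T.chkName x) 2376 541 = true := by decide +kernel
theorem cN_2917 : allRange (fun x => forceN T.chkName x) 2917 556 = true := by decide +kernel
theorem cN_3473 : allRange (fun x => forceN T.chkName x) 3473 609 = true := by decide +kernel
theorem cN_4082 : allRange (fun x => forceN T.chkName x) 4082 620 = true := by decide +kernel
theorem cN_4702 : allRange (fun x => forceN T.chkName x) 4702 603 = true := by decide +kernel
theorem cN_5305 : allRange (fun x => forceN T.chkName x) 5305 607 = true := by decide +kernel
theorem cN_5912 : allRange (fun x => forceN T.chkName x) 5912 606 = true := by decide +kernel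
theorem cN_6518 : allRange (fun x => forceN T.chkName x) 6518 646 = true := by decide +kernel

end Cfsg.Agent.Lib.Helper28.G2Mult.L0
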