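import Mathlib
import Cfsg.Agent.Lib.Helper56.TC
import Cfsg.Agent.Lib.Helper28.G2Mult.L0.D
set_option autoImplicit false
set_option maxRecDepth 1000000

namespace Cfsg.Agent.Lib.Helper28.G2Mult.L0

open Cfsg.Agent.Lib.Helper56.TC Cfsg.Agent.Lib.Helper56.TC.Tabs
open Cfsg.Agent.Lib.Helper28.CovL

theorem cN_7164 : allRange (fun x => forceN T.chkName x) 7164 649 = true := by decide +kernel
theorem cN_7813 : allRange (fun x => forceN T.chkName x) 7813 682 = true := by decide +kernel
theorem cN_8495 : allRange (fun x => forceN T.chkName x) 8495 670 = true := by decide +kernel
theorem cN_9165 : allRange (fun x => forceN T.chkName x) 9165 674 = true := by decide +kernel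
theorem cN_9839 : allRange (fun x => forceN T.chkName x) 9839 664 = true := by decide +kernel
theorem cN_10503 : allRange (fun x => forceN T.chkName x) 10503 681 = true := by decide +kernel
theorem cN_11184 : allRange (fun x => forceN T.chkName x) 11184 658 = true := by decide +kernel
theorem cN_11842 : allRange (fun x => forceN T.chkName x) 11842 666 = true := by decide +kernel
theorem cN_12508 : allRange (fun x => forceN T.chkName x) 12508 674 = true := by decide +kernel
theorem cN_13182 : allRange (fun x => forceN T.chkName x) 13182 683 = true := by decide +kernel
theorem cN_13865 : allRange (fun x => forceN T.chkName x) 13865 689 = true := by decide +kernel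
theorem cN_14554 : allRange (fun x => forceN T.chkName x) 14554 682 = true := by decide +kernel

end Cfsg.Agent.Lib.Helper28.G2Mult.L0
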