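import Mathlib
import Cfsg.Agent.Lib.Helper56.TC
import Cfsg.Agent.Lib.Helper28.G2Mult.L0.D
set_option autoImplicit false
set_option maxRecDepth 1000000

namespace Cfsg.Agent.Lib.Helper28.G2Mult.L0

open Cfsg.Agent.Lib.Helper56.TC Cfsg.Agent.Lib.Helper56.TC.Tabs
open Cfsg.Agent.Lib.Helper28.CovL

theorem cN_80582 : allRange (fun x => forceN T.chkName x) 80582 670 = true := by decide +kernel
theorem cN_81252 : allRange (fun x => forceN T.chkName x) 81252 676 = true := by decide +kernel
theorem cN_81928 : allRange (fun x => forceN T.chkName x) 81928 682 = true := by decide +kernel
theorem cN_82610 : allRange (fun x => forceN T.chkName x) 82610 690 = true := by decide +kernel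
theorem cN_83300 : allRange (fun x => forceN T.chkName x) 83300 690 = true := by decide +kernel
theorem cN_83990 : allRange (fun x => forceN T.chkName x) 83990 693 = true := by decide +kernel
theorem cN_84683 : allRange (fun x => forceN T.chkName x) 84683 693 = true := by decide +kernel
theorem cN_85376 : allRange (fun x => forceN T.chkName x) 85376 691 = true := by decide +kernel
theorem cN_86067 : allRange (fun x => forceN T.chkName x) 86067 691 = true := by decide +kernel
theorem cN_86758 : allRange (fun x => forceN T.chkName x) 86758 693 = true := by decide +kernel
theorem cN_87451 : allRange (fun x => forceN T.chkName x) 87451 700 = true := by decide +kernel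
theorem cN_88151 : allRange (fun x => forceN T.chkName x) 88151 672 = true := by decide +kernel

end Cfsg.Agent.Lib.Helper28.G2Mult.L0
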