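import Mathlib
import Cfsg.Agent.Lib.Helper56.TC
import Cfsg.Agent.Lib.Helper28.G2Mult.L0.D
set_option autoImplicit false
set_option maxRecDepth 1000000

namespace Cfsg.Agent.Lib.Helper28.G2Mult.L0

open Cfsg.Agent.Lib.Helper56.TC Cfsg.Agent.Lib.Helper56.TC.Tabs
open Cfsg.Agent.Lib.Helper28.CovL

theorem cN_88823 : allRange (fun x => forceN T.chkName x) 88823 692 = true := by decide +kernel
theorem cN_89515 : allRange (fun x => forceN T.chkName x) 89515 678 = true := by decide +kernel
theorem cN_90193 : allRange (fun x => forceN T.chkName x) 90193 680 = true := by decide +kernel
theorem cN_90873 : allRange (fun x => forceN T.chkName x) 90873 688 = true := by decide +kernel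
theorem cN_91561 : allRange (fun x => forceN T.chkName x) 91561 704 = true := by decide +kernel
theorem cN_92265 : allRange (fun x => forceN T.chkName x) 92265 684 = true := by decide +kernel
theorem cN_92949 : allRange (fun x => forceN T.chkName x) 92949 686 = true := by decide +kernel
theorem cN_93635 : allRange (fun x => forceN T.chkName x) 93635 682 = true := by decide +kernel
theorem cN_94317 : allRange (fun x => forceN T.chkName x) 94317 673 = true := by decide +kernel
theorem cN_94990 : allRange (fun x => forceN T.chkName x) 94990 690 = true := by decide +kernel
theorem cN_95680 : allRange (fun x => forceN T.chkName x) 95680 681 = true := by decide +kernel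
theorem cN_96361 : allRange (fun x => forceN T.chkName x) 96361 694 = true := by decide +kernel

end Cfsg.Agent.Lib.Helper28.G2Mult.L0
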