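import Mathlib
import Cfsg.Agent.Lib.Helper56.TC
import Cfsg.Agent.Lib.Helper28.G2Mult.L0.D
set_option autoImplicit false
set_option maxRecDepth 1000000

namespace Cfsg.Agent.Lib.Helper28.G2Mult.L0

open Cfsg.Agent.Lib.Helper56.TC Cfsg.Agent.Lib.Helper56.TC.Tabs
open Cfsg.Agent.Lib.Helper28.CovL

theorem cN_97055 : allRange (fun x => forceN T.chkName x) 97055 678 = true := by decide +kernel
theorem cN_97733 : allRange (fun x => forceN T.chkName x) 97733 683 = true := by decide +kernel
theorem cN_98416 : allRange (fun x => forceN T.chkName x) 98416 687 = true := by decide +kernel
theorem cN_99103 : allRange (fun x => forceN T.chkName x) 99103 694 = true := by decide +kernel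
theorem cN_99797 : allRange (fun x => forceN T.chkName x) 99797 679 = true := by decide +kernel
theorem cN_100476 : allRange (fun x => forceN T.chkName x) 100476 687 = true := by decide +kernel
theorem cN_101163 : allRange (fun x => forceN T.chkName x) 101163 698 = true := by decide +kernel
theorem cN_101861 : allRange (fun x => forceN T.chkName x) 101861 699 = true := by decide +kernel
theorem cN_102560 : allRange (fun x => forceN T.chkName x) 102560 693 = true := by decide +kernel
theorem cN_103253 : allRange (fun x => forceN T.chkName x) 103253 674 = true := by decide +kernel
theorem cN_103927 : allRange (fun x => forceN T.chkName x) 103927 693 = true := by decide +kernel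
theorem cN_104620 : allRange (fun x => forceN T.chkName x) 104620 686 = true := by decide +kernel

end Cfsg.Agent.Lib.Helper28.G2Mult.L0
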