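import Mathlib
import Cfsg.Agent.Lib.Helper56.TC
import Cfsg.Agent.Lib.Helper28.G2Mult.L0.D
set_option autoImplicit false
set_option maxRecDepth 1000000

namespace Cfsg.Agent.Lib.Helper28.G2Mult.L0

open Cfsg.Agent.Lib.Helper56.TC Cfsg.Agent.Lib.Helper56.TC.Tabs
open Cfsg.Agent.Lib.Helper28.CovL

theorem cN_105306 : allRange (fun x => forceN T.chkName x) 105306 694 = true := by decide +kernel
theorem cN_106000 : allRange (fun x => forceN T.chkName x) 106000 695 = true := by decide +kernel
theorem cN_106695 : allRange (fun x => forceN T.chkName x) 106695 691 = true := by decide +kernel
theorem cN_107386 : allRange (fun x => forceN T.chkName x) 107386 692 = true := by decide +kernel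
theorem cN_108078 : allRange (fun x => forceN T.chkName x) 108078 700 = true := by decide +kernel
theorem cN_108778 : allRange (fun x => forceN T.chkName x) 108778 692 = true := by decide +kernel
theorem cN_109470 : allRange (fun x => forceN T.chkName x) 109470 691 = true := by decide +kernel
theorem cN_110161 : allRange (fun x => forceN T.chkName x) 110161 696 = true := by decide +kernel
theorem cN_110857 : allRange (fun x => forceN T.chkName x) 110857 689 = true := by decide +kernel
theorem cN_111546 : allRange (fun x => forceN T.chkName x) 111546 686 = true := by decide +kernel
theorem cN_112232 : allRange (fun x => forceN T.chkName x) 112232 682 = true := by decide +kernel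
theorem cN_112914 : allRange (fun x => forceN T.chkName x) 112914 704 = true := by decide +kernel

end Cfsg.Agent.Lib.Helper28.G2Mult.L0
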