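import Mathlib
import Cfsg.Agent.Lib.Helper56.TC
import Cfsg.Agent.Lib.Helper28.G2Mult.L0.D
set_option autoImplicit false
set_option maxRecDepth 1000000

namespace Cfsg.Agent.Lib.Helper28.G2Mult.L0

open Cfsg.Agent.Lib.Helper56.TC Cfsg.Agent.Lib.Helper56.TC.Tabs
open Cfsg.Agent.Lib.Helper28.CovL

theorem cN_113618 : allRange (fun x => forceN T.chkName x) 113618 695 = true := by decide +kernel
theorem cN_114313 : allRange (fun x => forceN T.chkName x) 114313 688 = true := by decide +kernel
theorem cN_115001 : allRange (fun x => forceN T.chkName x) 115001 649 = true := by decide +kernel
theorem cN_115650 : allRange (fun x => forceN T.chkName x) 115650 666 = true := by decide +kernel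
theorem cN_116316 : allRange (fun x => forceN T.chkName x) 116316 688 = true := by decide +kernel
theorem cN_117004 : allRange (fun x => forceN T.chkName x) 117004 689 = true := by decide +kernel
theorem cN_117693 : allRange (fun x => forceN T.chkName x) 117693 639 = true := by decide +kernel
theorem cN_118332 : allRange (fun x => forceN T.chkName x) 118332 650 = true := by decide +kernel
theorem cN_118982 : allRange (fun x => forceN T.chkName x) 118982 654 = true := by decide +kernel
theorem cN_119636 : allRange (fun x => forceN T.chkName x) 119636 652 = true := by decide +kernel
theorem cN_120288 : allRange (fun x => forceN T.chkName x) 120288 668 = true := by decide +kernel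
theorem cN_120956 : allRange (fun x => forceN T.chkName x) 120956 678 = true := by decide +kernel

end Cfsg.Agent.Lib.Helper28.G2Mult.L0
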