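import Mathlib
import Cfsg.Agent.Lib.Helper56.TC
import Cfsg.Agent.Lib.Helper28.G2Mult.L0.D
set_option autoImplicit false
set_option maxRecDepth 1000000

namespace Cfsg.Agent.Lib.Helper28.G2Mult.L0

open Cfsg.Agent.Lib.Helper56.TC Cfsg.Agent.Lib.Helper56.TC.Tabs
open Cfsg.Agent.Lib.Helper28.CovL

theorem cN_121634 : allRange (fun x => forceN T.chkName x) 121634 661 = true := by decide +kernel
theorem cN_122295 : allRange (fun x => forceN T.chkName x) 122295 684 = true := by decide +kernel
theorem cN_122979 : allRange (fun x => forceN T.chkName x) 122979 673 = true := by decide +kernel
theorem cN_123652 : allRange (fun x => forceN T.chkName x) 123652 676 = true := by decide +kernel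
theorem cN_124328 : allRange (fun x => forceN T.chkName x) 124328 690 = true := by decide +kernel
theorem cN_125018 : allRange (fun x => forceN T.chkName x) 125018 678 = true := by decide +kernel
theorem cN_125696 : allRange (fun x => forceN T.chkName x) 125696 680 = true := by decide +kernel
theorem cN_126376 : allRange (fun x => forceN T.chkName x) 126376 679 = true := by decide +kernel
theorem cN_127055 : allRange (fun x => forceN T.chkName x) 127055 692 = true := by decide +kernel
theorem cN_127747 : allRange (fun x => forceN T.chkName x) 127747 685 = true := by decide +kernel
theorem cN_128432 : allRange (fun x => forceN T.chkName x) 128432 684 = true := by decide +kernel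
theorem cN_129116 : allRange (fun x => forceN T.chkName x) 129116 671 = true := by decide +kernel

end Cfsg.Agent.Lib.Helper28.G2Mult.L0
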