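import Mathlib
import Cfsg.Agent.Lib.Helper56.TC
import Cfsg.Agent.Lib.Helper28.G2Mult.L0.D
set_option autoImplicit false
set_option maxRecDepth 1000000

namespace Cfsg.Agent.Lib.Helper28.G2Mult.L0

open Cfsg.Agent.Lib.Helper56.TC Cfsg.Agent.Lib.Helper56.TC.Tabs
open Cfsg.Agent.Lib.Helper28.CovL

theorem cN_129787 : allRange (fun x => forceN T.chkName x) 129787 679 = true := by decide +kernel
theorem cN_130466 : allRange (fun x => forceN T.chkName x) 130466 688 = true := by decide +kernel
theorem cN_131154 : allRange (fun x => forceN T.chkName x) 131154 695 = true := by decide +kernel
theorem cN_131849 : allRange (fun x => forceN T.chkName x) 131849 708 = true := by decide +kernel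
theorem cN_132557 : allRange (fun x => forceN T.chkName x) 132557 689 = true := by decide +kernel
theorem cN_133246 : allRange (fun x => forceN T.chkName x) 133246 695 = true := by decide +kernel
theorem cN_133941 : allRange (fun x => forceN T.chkName x) 133941 699 = true := by decide +kernel
theorem cN_134640 : allRange (fun x => forceN T.chkName x) 134640 700 = true := by decide +kernel
theorem cN_135340 : allRange (fun x => forceN T.chkName x) 135340 695 = true := by decide +kernel
theorem cN_136035 : allRange (fun x => forceN T.chkName x) 136035 702 = true := by decide +kernel
theorem cN_136737 : allRange (fun x => forceN T.chkName x) 136737 698 = true := by decide +kernel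
theorem cN_137435 : allRange (fun x => forceN T.chkName x) 137435 694 = true := by decide +kernel

end Cfsg.Agent.Lib.Helper28.G2Mult.L0
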