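import Mathlib
import Cfsg.Agent.Lib.Helper56.TC
import Cfsg.Agent.Lib.Helper28.G2Mult.L0.D
set_option autoImplicit false
set_option maxRecDepth 1000000

namespace Cfsg.Agent.Lib.Helper28.G2Mult.L0

open Cfsg.Agent.Lib.Helper56.TC Cfsg.Agent.Lib.Helper56.TC.Tabs
open Cfsg.Agent.Lib.Helper28.CovL

theorem cN_138129 : allRange (fun x => forceN T.chkName x) 138129 697 = true := by decide +kernel
theorem cN_138826 : allRange (fun x => forceN T.chkName x) 138826 675 = true := by decide +kernel
theorem cN_139501 : allRange (fun x => forceN T.chkName x) 139501 681 = true := by decide +kernel
theorem cN_140182 : allRange (fun x => forceN T.chkName x) 140182 673 = true := by decide +kernel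
theorem cN_140855 : allRange (fun x => forceN T.chkName x) 140855 658 = true := by decide +kernel
theorem cN_141513 : allRange (fun x => forceN T.chkName x) 141513 674 = true := by decide +kernel
theorem cN_142187 : allRange (fun x => forceN T.chkName x) 142187 659 = true := by decide +kernel
theorem cN_142846 : allRange (fun x => forceN T.chkName x) 142846 666 = true := by decide +kernel
theorem cN_143512 : allRange (fun x => forceN T.chkName x) 143512 672 = true := by decide +kernel
theorem cN_144184 : allRange (fun x => forceN T.chkName x) 144184 669 = true := by decide +kernel
theorem cN_144853 : allRange (fun x => forceN T.chkName x) 144853 678 = true := by decide +kernel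
theorem cN_145531 : allRange (fun x => forceN T.chkName x) 145531 676 = true := by decide +kernel

end Cfsg.Agent.Lib.Helper28.G2Mult.L0
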