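import Mathlib
import Cfsg.Agent.Lib.Helper56.TC
import Cfsg.Agent.Lib.Helper28.G2Mult.L0.D
set_option autoImplicit false
set_option maxRecDepth 1000000

namespace Cfsg.Agent.Lib.Helper28.G2Mult.L0

open Cfsg.Agent.Lib.Helper56.TC Cfsg.Agent.Lib.Helper56.TC.Tabs
open Cfsg.Agent.Lib.Helper28.CovL

theorem cN_146207 : allRange (fun x => forceN T.chkName x) 146207 689 = true := by decide +kernel
theorem cN_146896 : allRange (fun x => forceN T.chkName x) 146896 675 = true := by decide +kernel
theorem cN_147571 : allRange (fun x => forceN T.chkName x) 147571 676 = true := by decide +kernel
theorem cN_148247 : allRange (fun x => forceN T.chkName x) 148247 671 = true := by decide +kernel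
theorem cN_148918 : allRange (fun x => forceN T.chkName x) 148918 666 = true := by decide +kernel
theorem cN_149584 : allRange (fun x => forceN T.chkName x) 149584 667 = true := by decide +kernel
theorem cN_150251 : allRange (fun x => forceN T.chkName x) 150251 666 = true := by decide +kernel
theorem cN_150917 : allRange (fun x => forceN T.chkName x) 150917 682 = true := by decide +kernel
theorem cN_151599 : allRange (fun x => forceN T.chkName x) 151599 654 = true := by decide +kernel
theorem cN_152253 : allRange (fun x => forceN T.chkName x) 152253 664 = true := by decide +kernel
theorem cN_152917 : allRange (fun x => forceN T.chkName x) 152917 679 = true := by decide +kernel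
theorem cN_153596 : allRange (fun x => forceN T.chkName x) 153596 652 = true := by decide +kernel

end Cfsg.Agent.Lib.Helper28.G2Mult.L0
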