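import Mathlib
import Cfsg.Agent.Lib.Helper56.TC
import Cfsg.Agent.Lib.Helper28.G2Mult.L0.D
set_option autoImplicit false
set_option maxRecDepth 1000000

namespace Cfsg.Agent.Lib.Helper28.G2Mult.L0

open Cfsg.Agent.Lib.Helper56.TC Cfsg.Agent.Lib.Helper56.TC.Tabs
open Cfsg.Agent.Lib.Helper28.CovL

theorem cN_154248 : allRange (fun x => forceN T.chkName x) 154248 649 = true := by decide +kernel
theorem cN_154897 : allRange (fun x => forceN T.chkName x) 154897 688 = true := by decide +kernel
theorem cN_155585 : allRange (fun x => forceN T.chkName x) 155585 681 = true := by decide +kernel
theorem cN_156266 : allRange (fun x => forceN T.chkName x) 156266 690 = true := by decide +kernel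
theorem cN_156956 : allRange (fun x => forceN T.chkName x) 156956 667 = true := by decide +kernel
theorem cN_157623 : allRange (fun x => forceN T.chkName x) 157623 666 = true := by decide +kernel
theorem cN_158289 : allRange (fun x => forceN T.chkName x) 158289 664 = true := by decide +kernel
theorem cN_158953 : allRange (fun x => forceN T.chkName x) 158953 684 = true := by decide +kernel
theorem cN_159637 : allRange (fun x => forceN T.chkName x) 159637 686 = true := by decide +kernel
theorem cN_160323 : allRange (fun x => forceN T.chkName x) 160323 681 = true := by decide +kernel
theorem cN_161004 : allRange (fun x => forceN T.chkName x) 161004 686 = true := by decide +kernel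
theorem cN_161690 : allRange (fun x => forceN T.chkName x) 161690 694 = true := by decide +kernel

end Cfsg.Agent.Lib.Helper28.G2Mult.L0
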