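import Mathlib
import Cfsg.Agent.Lib.Helper56.TC
import Cfsg.Agent.Lib.Helper28.G2Mult.L0.D
set_option autoImplicit false
set_option maxRecDepth 1000000

namespace Cfsg.Agent.Lib.Helper28.G2Mult.L0

open Cfsg.Agent.Lib.Helper56.TC Cfsg.Agent.Lib.Helper56.TC.Tabs
open Cfsg.Agent.Lib.Helper28.CovL

theorem cN_15236 : allRange (fun x => forceN T.chkName x) 15236 679 = true := by decide +kernel
theorem cN_15915 : allRange (fun x => forceN T.chkName x) 15915 696 = true := by decide +kernel
theorem cN_16611 : allRange (fun x => forceN T.chkName x) 16611 687 = true := by decide +kernel
theorem cN_17298 : allRange (fun x => forceN T.chkName x) 17298 680 = true := by decide +kernel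
theorem cN_17978 : allRange (fun x => forceN T.chkName x) 17978 673 = true := by decide +kernel
theorem cN_18651 : allRange (fun x => forceN T.chkName x) 18651 674 = true := by decide +kernel
theorem cN_19325 : allRange (fun x => forceN T.chkName x) 19325 673 = true := by decide +kernel
theorem cN_19998 : allRange (fun x => forceN T.chkName x) 19998 687 = true := by decide +kernel
theorem cN_20685 : allRange (fun x => forceN T.chkName x) 20685 690 = true := by decide +kernel
theorem cN_21375 : allRange (fun x => forceN T.chkName x) 21375 675 = true := by decide +kernel
theorem cN_22050 : allRange (fun x => forceN T.chkName x) 22050 646 = true := by decide +kernel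
theorem cN_22696 : allRange (fun x => forceN T.chkName x) 22696 656 = true := by decide +kernel

end Cfsg.Agent.Lib.Helper28.G2Mult.L0
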