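import Mathlib
import Cfsg.Agent.Lib.Helper56.TC
import Cfsg.Agent.Lib.Helper28.G2Mult.L0.D
set_option autoImplicit false
set_option maxRecDepth 1000000

namespace Cfsg.Agent.Lib.Helper28.G2Mult.L0

open Cfsg.Agent.Lib.Helper56.TC Cfsg.Agent.Lib.Helper56.TC.Tabs
open Cfsg.Agent.Lib.Helper28.CovL

theorem cN_162384 : allRange (fun x => forceN T.chkName x) 162384 677 = true := by decide +kernel
theorem cN_163061 : allRange (fun x => forceN T.chkName x) 163061 691 = true := by decide +kernel
theorem cN_163752 : allRange (fun x => forceN T.chkName x) 163752 687 = true := by decide +kernel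
theorem cN_164439 : allRange (fun x => forceN T.chkName x) 164439 689 = true := by decide +kernel
theorem cN_165128 : allRange (fun x => forceN T.chkName x) 165128 684 = true := by decide +kernel
theorem cN_165812 : allRange (fun x => forceN T.chkName x) 165812 691 = true := by decide +kernel
theorem cN_166503 : allRange (fun x => forceN T.chkName x) 166503 489 = true := by decide +kernel
theorem cF_0 : allRange (fun x => forceN T.chkFinName x) 0 222 = true := by decide +kernel
theorem cF_222 : allRange (fun x => forceN T.chkFinName x) 222 194 = true := by decide +kernel

end Cfsg.Agent.Lib.Helper28.G2Mult.L0
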