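import Mathlib
import Cfsg.Agent.Lib.Helper56.TC
import Cfsg.Agent.Lib.Helper28.G2Mult.L0.D
set_option autoImplicit false
set_option maxRecDepth 1000000

namespace Cfsg.Agent.Lib.Helper28.G2Mult.L0

open Cfsg.Agent.Lib.Helper56.TC Cfsg.Agent.Lib.Helper56.TC.Tabs
open Cfsg.Agent.Lib.Helper28.CovL

theorem cN_23352 : allRange (fun x => forceN T.chkName x) 23352 622 = true := by decide +kernel
theorem cN_23974 : allRange (fun x => forceN T.chkName x) 23974 642 = true := by decide +kernel
theorem cN_24616 : allRange (fun x => forceN T.chkName x) 24616 651 = true := by decide +kernel
theorem cN_25267 : allRange (fun x => forceN T.chkName x) 25267 683 = true := by decide +kernel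
theorem cN_25950 : allRange (fun x => forceN T.chkName x) 25950 647 = true := by decide +kernel
theorem cN_26597 : allRange (fun x => forceN T.chkName x) 26597 683 = true := by decide +kernel
theorem cN_27280 : allRange (fun x => forceN T.chkName x) 27280 694 = true := by decide +kernel
theorem cN_27974 : allRange (fun x => forceN T.chkName x) 27974 697 = true := by decide +kernel
theorem cN_28671 : allRange (fun x => forceN T.chkName x) 28671 676 = true := by decide +kernel
theorem cN_29347 : allRange (fun x => forceN T.chkName x) 29347 695 = true := by decide +kernel
theorem cN_30042 : allRange (fun x => forceN T.chkName x) 30042 677 = true := by decide +kernel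
theorem cN_30719 : allRange (fun x => forceN T.chkName x) 30719 687 = true := by decide +kernel

end Cfsg.Agent.Lib.Helper28.G2Mult.L0
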