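import Mathlib
import Cfsg.Agent.Lib.Helper56.TC
import Cfsg.Agent.Lib.Helper28.G2Mult.L0.D
set_option autoImplicit false
set_option maxRecDepth 1000000

namespace Cfsg.Agent.Lib.Helper28.G2Mult.L0

open Cfsg.Agent.Lib.Helper56.TC Cfsg.Agent.Lib.Helper56.TC.Tabs
open Cfsg.Agent.Lib.Helper28.CovL

theorem cN_31406 : allRange (fun x => forceN T.chkName x) 31406 689 = true := by decide +kernel
theorem cN_32095 : allRange (fun x => forceN T.chkName x) 32095 692 = true := by decide +kernel
theorem cN_32787 : allRange (fun x => forceN T.chkName x) 32787 699 = true := by decide +kernel
theorem cN_33486 : allRange (fun x => forceN T.chkName x) 33486 699 = true := by decide +kernel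
theorem cN_34185 : allRange (fun x => forceN T.chkName x) 34185 697 = true := by decide +kernel
theorem cN_34882 : allRange (fun x => forceN T.chkName x) 34882 692 = true := by decide +kernel
theorem cN_35574 : allRange (fun x => forceN T.chkName x) 35574 693 = true := by decide +kernel
theorem cN_36267 : allRange (fun x => forceN T.chkName x) 36267 673 = true := by decide +kernel
theorem cN_36940 : allRange (fun x => forceN T.chkName x) 36940 689 = true := by decide +kernel
theorem cN_37629 : allRange (fun x => forceN T.chkName x) 37629 680 = true := by decide +kernel
theorem cN_38309 : allRange (fun x => forceN T.chkName x) 38309 675 = true := by decide +kernel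
theorem cN_38984 : allRange (fun x => forceN T.chkName x) 38984 682 = true := by decide +kernel

end Cfsg.Agent.Lib.Helper28.G2Mult.L0
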