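import Mathlib
import Cfsg.Agent.Lib.Helper56.TC
import Cfsg.Agent.Lib.Helper28.G2Mult.L0.D
set_option autoImplicit false
set_option maxRecDepth 1000000

namespace Cfsg.Agent.Lib.Helper28.G2Mult.L0

open Cfsg.Agent.Lib.Helper56.TC Cfsg.Agent.Lib.Helper56.TC.Tabs
open Cfsg.Agent.Lib.Helper28.CovL

theorem cN_39666 : allRange (fun x => forceN T.chkName x) 39666 689 = true := by decide +kernel
theorem cN_40355 : allRange (fun x => forceN T.chkName x) 40355 692 = true := by decide +kernel
theorem cN_41047 : allRange (fun x => forceN T.chkName x) 41047 680 = true := by decide +kernel
theorem cN_41727 : allRange (fun x => forceN T.chkName x) 41727 694 = true := by decide +kernel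
theorem cN_42421 : allRange (fun x => forceN T.chkName x) 42421 683 = true := by decide +kernel
theorem cN_43104 : allRange (fun x => forceN T.chkName x) 43104 691 = true := by decide +kernel
theorem cN_43795 : allRange (fun x => forceN T.chkName x) 43795 690 = true := by decide +kernel
theorem cN_44485 : allRange (fun x => forceN T.chkName x) 44485 680 = true := by decide +kernel
theorem cN_45165 : allRange (fun x => forceN T.chkName x) 45165 683 = true := by decide +kernel
theorem cN_45848 : allRange (fun x => forceN T.chkName x) 45848 701 = true := by decide +kernel
theorem cN_46549 : allRange (fun x => forceN T.chkName x) 46549 693 = true := by decide +kernel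
theorem cN_47242 : allRange (fun x => forceN T.chkName x) 47242 687 = true := by decide +kernel

end Cfsg.Agent.Lib.Helper28.G2Mult.L0
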