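import Mathlib
import Cfsg.Agent.Lib.Helper56.TC
import Cfsg.Agent.Lib.Helper28.G2Mult.L0.D
set_option autoImplicit false
set_option maxRecDepth 1000000

namespace Cfsg.Agent.Lib.Helper28.G2Mult.L0

open Cfsg.Agent.Lib.Helper56.TC Cfsg.Agent.Lib.Helper56.TC.Tabs
open Cfsg.Agent.Lib.Helper28.CovL

theorem cN_47929 : allRange (fun x => forceN T.chkName x) 47929 705 = true := by decide +kernel
theorem cN_48634 : allRange (fun x => forceN T.chkName x) 48634 681 = true := by decide +kernel
theorem cN_49315 : allRange (fun x => forceN T.chkName x) 49315 656 = true := by decide +kernel
theorem cN_49971 : allRange (fun x => forceN T.chkName x) 49971 647 = true := by decide +kernel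
theorem cN_50618 : allRange (fun x => forceN T.chkName x) 50618 672 = true := by decide +kernel
theorem cN_51290 : allRange (fun x => forceN T.chkName x) 51290 662 = true := by decide +kernel
theorem cN_51952 : allRange (fun x => forceN T.chkName x) 51952 678 = true := by decide +kernel
theorem cN_52630 : allRange (fun x => forceN T.chkName x) 52630 682 = true := by decide +kernel
theorem cN_53312 : allRange (fun x => forceN T.chkName x) 53312 655 = true := by decide +kernel
theorem cN_53967 : allRange (fun x => forceN T.chkName x) 53967 684 = true := by decide +kernel
theorem cN_54651 : allRange (fun x => forceN T.chkName x) 54651 669 = true := by decide +kernel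
theorem cN_55320 : allRange (fun x => forceN T.chkName x) 55320 692 = true := by decide +kernel

end Cfsg.Agent.Lib.Helper28.G2Mult.L0
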