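import Mathlib
import Cfsg.Agent.Lib.Helper56.TC
import Cfsg.Agent.Lib.Helper28.G2Mult.L0.D
set_option autoImplicit false
set_option maxRecDepth 1000000

namespace Cfsg.Agent.Lib.Helper28.G2Mult.L0

open Cfsg.Agent.Lib.Helper56.TC Cfsg.Agent.Lib.Helper56.TC.Tabs
open Cfsg.Agent.Lib.Helper28.CovL

theorem cN_56012 : allRange (fun x => forceN T.chkName x) 56012 683 = true := by decide +kernel
theorem cN_56695 : allRange (fun x => forceN T.chkName x) 56695 684 = true := by decide +kernel
theorem cN_57379 : allRange (fun x => forceN T.chkName x) 57379 691 = true := by decide +kernel
theorem cN_58070 : allRange (fun x => forceN T.chkName x) 58070 696 = true := by decide +kernel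
theorem cN_58766 : allRange (fun x => forceN T.chkName x) 58766 686 = true := by decide +kernel
theorem cN_59452 : allRange (fun x => forceN T.chkName x) 59452 687 = true := by decide +kernel
theorem cN_60139 : allRange (fun x => forceN T.chkName x) 60139 689 = true := by decide +kernel
theorem cN_60828 : allRange (fun x => forceN T.chkName x) 60828 665 = true := by decide +kernel
theorem cN_61493 : allRange (fun x => forceN T.chkName x) 61493 665 = true := by decide +kernel
theorem cN_62158 : allRange (fun x => forceN T.chkName x) 62158 661 = true := by decide +kernel
theorem cN_62819 : allRange (fun x => forceN T.chkName x) 62819 679 = true := by decide +kernel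
theorem cN_63498 : allRange (fun x => forceN T.chkName x) 63498 683 = true := by decide +kernel

end Cfsg.Agent.Lib.Helper28.G2Mult.L0
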