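import Mathlib
import Cfsg.Agent.Lib.Helper56.TC
import Cfsg.Agent.Lib.Helper28.G2Mult.L0.D
set_option autoImplicit false
set_option maxRecDepth 1000000

namespace Cfsg.Agent.Lib.Helper28.G2Mult.L0

open Cfsg.Agent.Lib.Helper56.TC Cfsg.Agent.Lib.Helper56.TC.Tabs
open Cfsg.Agent.Lib.Helper28.CovL

theorem cN_64181 : allRange (fun x => forceN T.chkName x) 64181 676 = true := by decide +kernel
theorem cN_64857 : allRange (fun x => forceN T.chkName x) 64857 685 = true := by decide +kernel
theorem cN_65542 : allRange (fun x => forceN T.chkName x) 65542 686 = true := by decide +kernel
theorem cN_66228 : allRange (fun x => forceN T.chkName x) 66228 699 = true := by decide +kernel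
theorem cN_66927 : allRange (fun x => forceN T.chkName x) 66927 685 = true := by decide +kernel
theorem cN_67612 : allRange (fun x => forceN T.chkName x) 67612 688 = true := by decide +kernel
theorem cN_68300 : allRange (fun x => forceN T.chkName x) 68300 675 = true := by decide +kernel
theorem cN_68975 : allRange (fun x => forceN T.chkName x) 68975 689 = true := by decide +kernel
theorem cN_69664 : allRange (fun x => forceN T.chkName x) 69664 665 = true := by decide +kernel
theorem cN_70329 : allRange (fun x => forceN T.chkName x) 70329 694 = true := by decide +kernel
theorem cN_71023 : allRange (fun x => forceN T.chkName x) 71023 674 = true := by decide +kernel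
theorem cN_71697 : allRange (fun x => forceN T.chkName x) 71697 693 = true := by decide +kernel

end Cfsg.Agent.Lib.Helper28.G2Mult.L0
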