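import Mathlib
import Cfsg.Agent.Lib.Helper56.TC
import Cfsg.Agent.Lib.Helper28.G2Mult.L0.D
set_option autoImplicit false
set_option maxRecDepth 1000000

namespace Cfsg.Agent.Lib.Helper28.G2Mult.L0

open Cfsg.Agent.Lib.Helper56.TC Cfsg.Agent.Lib.Helper56.TC.Tabs
open Cfsg.Agent.Lib.Helper28.CovL

theorem cN_72390 : allRange (fun x => forceN T.chkName x) 72390 666 = true := by decide +kernel
theorem cN_73056 : allRange (fun x => forceN T.chkName x) 73056 681 = true := by decide +kernel
theorem cN_73737 : allRange (fun x => forceN T.chkName x) 73737 692 = true := by decide +kernel
theorem cN_74429 : allRange (fun x => forceN T.chkName x) 74429 690 = true := by decide +kernel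
theorem cN_75119 : allRange (fun x => forceN T.chkName x) 75119 683 = true := by decide +kernel
theorem cN_75802 : allRange (fun x => forceN T.chkName x) 75802 677 = true := by decide +kernel
theorem cN_76479 : allRange (fun x => forceN T.chkName x) 76479 697 = true := by decide +kernel
theorem cN_77176 : allRange (fun x => forceN T.chkName x) 77176 685 = true := by decide +kernel
theorem cN_77861 : allRange (fun x => forceN T.chkName x) 77861 680 = true := by decide +kernel
theorem cN_78541 : allRange (fun x => forceN T.chkName x) 78541 682 = true := by decide +kernel
theorem cN_79223 : allRange (fun x => forceN T.chkName x) 79223 678 = true := by decide +kernel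
theorem cN_79901 : allRange (fun x => forceN T.chkName x) 79901 681 = true := by decide +kernel

end Cfsg.Agent.Lib.Helper28.G2Mult.L0
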